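import Mathlib

/-! A lower bound for the index of a proper subgroup, from the local structure at the prime five. -/

set_option autoImplicit false
set_option linter.unusedSectionVars false
set_option linter.unusedVariables false
set_option linter.style.haveILetI false
set_option linter.deprecated false

namespace Cfsg.Agent.H16.U35

section Abs

variable {G : Type*} [Group G] [Finite G]

/-- Any subgroup of order 25 of a non-abelian group of order 125 contains a central subgroup of order 5. -/
lemma le_of_card25 {P Z A : Subgroup G} (hP : Nat.card P = 125) (hZc : Nat.card Z = 5)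
    (hZP : Z ≤ P) (hZcent : ∀ z ∈ Z, ∀ x ∈ P, z * x = x * z)
    (hnc : ∃ x ∈ P, ∃ y ∈ P, x * y ≠ y * x) (hAP : A ≤ P) (hA : Nat.card A = 25) : Z ≤ A := by
  by_contra hZA
  -- `A` is abelian
  have hcomm : ∀ a ∈ A, ∀ b ∈ A, a * b = b * a := by
    haveI : IsPGroup 5 A := IsPGroup.of_card (n := 2) (by rw [hA]; norm_num)
    haveI hf : Fact (Nat.Prime 5) := ⟨by norm_num⟩
    have := IsPGroup.isMulCommutative_of_card_eq_prime_sq (p := 5) (G := A) (by rw [hA]; norm_num)
    intro a ha b hb
    have h := mul_comm' (⟨a, ha⟩ : A) ⟨b, hb⟩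
    exact congrArg Subtype.val h
  -- the join is abelian and everything
  have hle : A ⊔ Z ≤ P := sup_le hAP hZP
  have hlt : A < A ⊔ Z := lt_of_le_of_ne le_sup_left (by
    intro h
    apply hZA
    rw [h]
    exact le_sup_right)
  have hcard : Nat.card (A ⊔ Z : Subgroup G) = 125 := by
    have h1 : Nat.card A ∣ Nat.card (A ⊔ Z : Subgroup G) := Subgroup.card_dvd_of_le le_sup_left
    have h2 : Nat.card (A ⊔ Z : Subgroup G) ∣ Nat.card P := Subgroup.card_dvd_of_le hle
    rw [hA] at h1
    rw [hP] at h2
    have h3 : Nat.card (A ⊔ Z : Subgroup G) ≠ 25 := by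
      intro h
      exact (ne_of_lt hlt) (Subgroup.eq_of_le_of_card_ge le_sup_left (by rw [h, hA]))
    have h4 : Nat.card (A ⊔ Z : Subgroup G) ≤ 125 := Nat.le_of_dvd (by norm_num) h2
    have h5 : Nat.card (A ⊔ Z : Subgroup G) ∈ Nat.divisors 125 := by
      rw [Nat.mem_divisors]
      exact ⟨h2, by norm_num⟩
    have h6 : ∀ d ∈ Nat.divisors 125, 25 ∣ d → d ≠ 25 → d = 125 := by decide +kernel
    exact h6 _ h5 h1 h3
  have hsup : A ⊔ Z = P := Subgroup.eq_of_le_of_card_ge hle (by rw [hcard, hP])
  obtain ⟨x, hx, y, hy, hxy⟩ := hnc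
  apply hxy
  rw [← hsup] at hx hy
  -- `A ⊔ Z` lies in the centraliser of itself
  have hC1 : A ⊔ Z ≤ Subgroup.centralizer (A : Set G) := by
    refine sup_le ?_ ?_
    · intro a ha
      rw [Subgroup.mem_centralizer_iff]
      intro b hb
      exact hcomm b hb a ha
    · intro z hz
      rw [Subgroup.mem_centralizer_iff]
      intro b hb
      exact (hZcent z hz b (hAP hb)).symm
  have hC2 : A ⊔ Z ≤ Subgroup.centralizer ((A ⊔ Z : Subgroup G) : Set G) := by
    refine sup_le ?_ ?_
    · intro a ha
      rw [Subgroup.mem_centralizer_iff]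
      intro b hb
      exact ((Subgroup.mem_centralizer_iff.1 (hC1 hb)) a ha).symm
    · intro z hz
      rw [Subgroup.mem_centralizer_iff]
      intro b hb
      exact (hZcent z hz b (hle hb)).symm
  exact (Subgroup.mem_centralizer_iff.1 (hC2 hx)) y hy |>.symm

variable [IsSimpleGroup G]

/-- The abstract statement. -/
theorem index_ge_of_local (hG : Nat.card G = 126000) (P N Z : Subgroup G)
    (hP : Nat.card P = 125) (hN : Nat.card N = 1000) (hZc : Nat.card Z = 5)
    (hPN : P ≤ N) (hZP : Z ≤ P)
    (hnorm : ∀ n ∈ N, ∀ x ∈ P, n * x * n⁻¹ ∈ P)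
    (hnormZ : ∀ n ∈ N, ∀ x ∈ Z, n * x * n⁻¹ ∈ Z)
    (hpow : ∀ n ∈ N, n ^ 24 ∈ P)
    (hTI : ∀ g x, x ∈ P → x ≠ 1 → g * x * g⁻¹ ∈ P → g ∈ N)
    (hZcent : ∀ z ∈ Z, ∀ x ∈ P, z * x = x * z)
    (hnc : ∃ x ∈ P, ∃ y ∈ P, x * y ≠ y * x)
    (hinv : ∀ t ∈ N, t ^ 2 = 1 → t ≠ 1 → ∀ r ∈ P, t * r = r * t → r ∈ Z)
    (H : Subgroup G) (hH : H ≠ ⊤) : 50 ≤ H.index := by
  classical
  haveI : Fintype G := Fintype.ofFinite G
  haveI hf5 : Fact (Nat.Prime 5) := ⟨by norm_num⟩
  haveI hf2 : Fact (Nat.Prime 2) := ⟨by norm_num⟩
  -- elements of exponent 25 in `N` lie in `P`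
  have h25 : ∀ y ∈ N, y ^ 25 = 1 → y ∈ P := by
    intro y hy h
    have h1 : y = (y ^ 24) ^ 24 := by
      rw [← pow_mul]
      have : 24 * 24 = 25 * 23 + 1 := by norm_num
      rw [this, pow_add, pow_mul, h, one_pow, one_mul, pow_one]
    rw [h1]
    exact P.pow_mem (hpow y hy) 24
  -- the index of `N`
  have hNidx : N.index = 126 := by
    have := N.card_mul_index
    rw [hN, hG] at this
    omega
  -- intersections are large
  have hlarge : ∀ K : Subgroup G, 2520 < Nat.card K → 20 < Nat.card (K ⊓ N : Subgroup G) := by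
    intro K hK
    have h1 := Subgroup.index_inf_le (H := K) (K := N)
    rw [hNidx] at h1
    have h2 := K.card_mul_index
    have h3 := (K ⊓ N).card_mul_index
    rw [hG] at h2 h3
    by_contra hlt
    push Not at hlt
    have h4 : (K ⊓ N).index * Nat.card (K ⊓ N : Subgroup G) = 126000 := by rw [mul_comm]; exact h3
    have h5 : K.index * Nat.card K = 126000 := by rw [mul_comm]; exact h2
    have hpos : 0 < Nat.card (K ⊓ N : Subgroup G) := Nat.card_pos
    have h6 : 126000 ≤ K.index * 126 * 20 := by
      calc 126000 = (K ⊓ N).index * Nat.card (K ⊓ N : Subgroup G) := h4.symm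
        _ ≤ (K.index * 126) * 20 := Nat.mul_le_mul h1 hlt
    have hidx : K.index * 2520 ≥ 126000 := by nlinarith
    have hidx2 : K.index * 2520 < 126000 := by
      rw [← h5]
      exact Nat.mul_lt_mul_of_pos_left hK (Nat.pos_of_ne_zero (by
        intro h0
        rw [h0] at h5
        omega))
    omega
  -- the divisors of 1000 above 20 are multiples of 5
  have hdiv : ∀ K : Subgroup G, 2520 < Nat.card K → 5 ∣ Nat.card (K ⊓ N : Subgroup G) := by
    intro K hK
    have h1 := hlarge K hK
    have h2 : Nat.card (K ⊓ N : Subgroup G) ∣ 1000 := by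
      rw [← hN]
      exact Subgroup.card_dvd_of_le inf_le_right
    have h3 : Nat.card (K ⊓ N : Subgroup G) ∈ Nat.divisors 1000 := by
      rw [Nat.mem_divisors]
      exact ⟨h2, by norm_num⟩
    have h4 : ∀ d ∈ Nat.divisors 1000, 20 < d → 5 ∣ d := by decide +kernel
    exact h4 _ h3 h1
  -- each large subgroup has an element of order five in `P`
  have hel : ∀ K : Subgroup G, 2520 < Nat.card K → ∃ x ∈ K, x ∈ P ∧ x ≠ 1 ∧ x ^ 5 = 1 := by
    intro K hK
    obtain ⟨x, hx⟩ := exists_prime_orderOf_dvd_card' 5 (hdiv K hK) 
    have hx5 : (x : G) ^ 5 = 1 := by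
      have := pow_orderOf_eq_one x
      rw [hx] at this
      exact congrArg Subtype.val this
    have hx1 : (x : G) ≠ 1 := by
      intro h
      have : x = 1 := Subtype.ext h
      rw [this, orderOf_one] at hx
      omega
    refine ⟨x, x.2.1, h25 _ x.2.2 ?_, hx1, hx5⟩
    rw [show (25 : ℕ) = 5 * 5 by norm_num, pow_mul, hx5, one_pow]
  -- the core statement
  have core : ∀ K : Subgroup G, 2520 < Nat.card K →
      (∀ x ∈ K, x ≠ 1 → x ^ 5 = 1 → ∃ h ∈ K, h⁻¹ * x * h ∈ P) → K = ⊤ := by
    intro K hK hstar
    -- `K N = G`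
    have hKN : ∀ g : G, ∃ h ∈ K, h⁻¹ * g ∈ N := by
      intro g
      let K' : Subgroup G := K.map (MulAut.conj g⁻¹).toMonoidHom
      have hK' : Nat.card K' = Nat.card K := by
        exact Nat.card_congr (Subgroup.equivMapOfInjective _ _ (MulAut.conj g⁻¹).injective).toEquiv.symm
      obtain ⟨x', hx'K, hx'P, hx'1, hx'5⟩ := hel K' (by rw [hK']; exact hK)
      obtain ⟨k, hk, hke⟩ := hx'K
      have hke' : g⁻¹ * k * g = x' := by
        simpa [MulAut.conj_apply] using hke
      have hkx : k = g * x' * g⁻¹ := by
        rw [← hke']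
        group
      have hk1 : k ≠ 1 := by
        intro h
        apply hx'1
        rw [← hke', h]
        group
      have hk5 : k ^ 5 = 1 := by
        rw [hkx, conj_pow, hx'5]
        group
      obtain ⟨h, hh, hhP⟩ := hstar k hk hk1 hk5
      refine ⟨h, hh, ?_⟩
      apply hTI (h⁻¹ * g) x' hx'P hx'1
      have : h⁻¹ * g * x' * (h⁻¹ * g)⁻¹ = h⁻¹ * k * h := by
        rw [hkx]
        group
      rw [this]
      exact hhP
    -- the central subgroup lies in `K`
    have hZK : Z ≤ K := by
      set A : Subgroup G := K ⊓ N with hA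
      have hA20 : 20 < Nat.card A := hlarge K hK
      have hAdvd : Nat.card A ∣ 1000 := by
        rw [← hN]
        exact Subgroup.card_dvd_of_le inf_le_right
      by_cases h25' : 25 ∣ Nat.card A
      · -- a subgroup of order 25
        obtain ⟨B, hB⟩ := Sylow.exists_subgroup_card_pow_prime (G := A) 5 (n := 2) (by simpa using h25')
        let B' : Subgroup G := B.map A.subtype
        have hB' : Nat.card B' = 25 := by
          rw [show Nat.card B' = Nat.card B from
            Nat.card_congr (Subgroup.equivMapOfInjective _ _ A.subtype_injective).toEquiv.symm, hB]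
          norm_num
        have hB'P : B' ≤ P := by
          rintro y ⟨b, hb, rfl⟩
          apply h25 _ b.2.2
          have : (b : A) ^ 25 = 1 := by
            have h0 : ((⟨b, hb⟩ : B) : A) ^ 25 = 1 := by
              have := pow_card_eq_one' (G := B) (x := ⟨b, hb⟩)
              rw [hB] at this
              have h1 := congrArg Subtype.val this
              simpa using h1
            exact h0
          have h1 := congrArg Subtype.val this
          simpa using h1
        have hZB : Z ≤ B' := le_of_card25 hP hZc hZP hZcent hnc hB'P hB'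
        intro z hz
        obtain ⟨b, hb, rfl⟩ := hZB hz
        exact b.2.1
      · -- the order is forty
        have hA40 : Nat.card A = 40 := by
          have h3 : Nat.card A ∈ Nat.divisors 1000 := by
            rw [Nat.mem_divisors]
            exact ⟨hAdvd, by norm_num⟩
          have h4 : ∀ d ∈ Nat.divisors 1000, 20 < d → ¬ 25 ∣ d → d = 40 := by decide +kernel
          exact h4 _ h3 hA20 h25'
        obtain ⟨r, hrK, hrP, hr1, hr5⟩ := hel K hK
        -- the orbit of `r` under `A` lies in the cyclic group generated by `r`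
        have hAP : ∀ y : G, y ∈ A → y ∈ P → y ∈ Subgroup.zpowers r := by
          -- the intersection of `A` and `P` has order five
          have hI : Nat.card (A ⊓ P : Subgroup G) ∣ 5 := by
            have h1 : Nat.card (A ⊓ P : Subgroup G) ∣ 40 := by
              rw [← hA40]
              exact Subgroup.card_dvd_of_le inf_le_left
            have h2 : Nat.card (A ⊓ P : Subgroup G) ∣ 125 := by
              rw [← hP]
              exact Subgroup.card_dvd_of_le inf_le_right
            have := Nat.dvd_gcd h1 h2
            simpa using this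
          have hrI : Subgroup.zpowers r ≤ A ⊓ P := by
            rw [Subgroup.zpowers_le]
            exact ⟨⟨hrK, hPN hrP⟩, hrP⟩
          have hrord : orderOf r = 5 := orderOf_eq_prime hr5 hr1
          have hcr : Nat.card (Subgroup.zpowers r) = 5 := by rw [Nat.card_zpowers, hrord]
          have heq : Subgroup.zpowers r = A ⊓ P := by
            apply Subgroup.eq_of_le_of_card_ge hrI
            rw [hcr]
            exact Nat.le_of_dvd (by norm_num) hI
          intro y hyA hyP
          rw [heq]
          exact ⟨hyA, hyP⟩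
        -- the centraliser of `r` in `A` is large
        let f : A → (Subgroup.zpowers r) := fun a => ⟨(a : G) * r * (a : G)⁻¹, by
          apply hAP
          · exact A.mul_mem (A.mul_mem a.2 ⟨hrK, hPN hrP⟩) (A.inv_mem a.2)
          · exact hnorm _ a.2.2 _ hrP⟩
        let C : Subgroup A := Subgroup.centralizer {(⟨r, ⟨hrK, hPN hrP⟩⟩ : A)}
        have hCmem : ∀ a : A, a ∈ C ↔ (a : G) * r = r * (a : G) := by
          intro a
          simp only [C, Subgroup.mem_centralizer_singleton_iff]
          constructor
          · intro h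
            have := congrArg Subtype.val h
            simpa using this
          · intro h
            exact Subtype.ext (by simpa using h)
        -- the values of `f` avoid the identity
        have hfne : ∀ a : A, f a ≠ 1 := by
          intro a h
          have h1 := congrArg Subtype.val h
          have h2 : (a : G) * r * (a : G)⁻¹ = 1 := h1
          apply hr1
          have : r = (a : G)⁻¹ * ((a : G) * r * (a : G)⁻¹) * (a : G) := by group
          rw [this, h2]
          group
        have hCidx : C.index ≤ 4 := by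
          -- `f` factors injectively through the cosets of `C`
          have hcardS : Nat.card {y : Subgroup.zpowers r // y ≠ 1} = 4 := by
            rw [Nat.card_eq_fintype_card] 
            have hcr : Fintype.card (Subgroup.zpowers r) = 5 := by
              rw [← Nat.card_eq_fintype_card, Nat.card_zpowers, orderOf_eq_prime hr5 hr1]
            rw [Fintype.card_subtype_compl]
            simp [hcr]
          let g : A ⧸ C → {y : Subgroup.zpowers r // y ≠ 1} :=
            Quotient.lift (fun a => (⟨f a, hfne a⟩ : {y : Subgroup.zpowers r // y ≠ 1})) (by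
              intro a b hab
              have hab' : a⁻¹ * b ∈ C := QuotientGroup.leftRel_apply.1 hab
              have h1 := (hCmem _).1 hab'
              apply Subtype.ext
              apply Subtype.ext
              change (a : G) * r * (a : G)⁻¹ = (b : G) * r * (b : G)⁻¹
              have h2 : ((a : G)⁻¹ * (b : G)) * r = r * ((a : G)⁻¹ * (b : G)) := by simpa using h1
              have h3 : (b : G) * r * (b : G)⁻¹ = (a : G) * (((a : G)⁻¹ * (b : G)) * r) * (b : G)⁻¹ := by group
              rw [h3, h2]
              group)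
          have hg : Function.Injective g := by
            intro x y
            induction x using QuotientGroup.induction_on with
            | H a =>
            induction y using QuotientGroup.induction_on with
            | H b =>
            intro h
            have h1 : (a : G) * r * (a : G)⁻¹ = (b : G) * r * (b : G)⁻¹ :=
              congrArg (fun z : {y : Subgroup.zpowers r // y ≠ 1} => ((z.1 : Subgroup.zpowers r) : G)) h
            apply QuotientGroup.eq.2
            rw [hCmem]
            have h2 : ((a : A)⁻¹ * b : A).1 = (a : G)⁻¹ * (b : G) := by simp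
            rw [h2]
            have h3 : (a : G)⁻¹ * (b : G) * r = (a : G)⁻¹ * ((b : G) * r * (b : G)⁻¹) * (b : G) := by group
            rw [h3, ← h1]
            group
          have := Nat.card_le_card_of_injective g hg
          rw [hcardS] at this
          exact this
        have hCcard : 10 ≤ Nat.card C := by
          have h1 := C.card_mul_index
          rw [hA40] at h1
          by_contra hlt
          push Not at hlt
          have : Nat.card C * C.index ≤ 9 * 4 := Nat.mul_le_mul (by omega) hCidx
          omega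
        have hCeven : 2 ∣ Nat.card C := by
          have h1 : Nat.card C ∣ 40 := by
            rw [← hA40]
            exact Subgroup.card_subgroup_dvd_card C
          have h3 : Nat.card C ∈ Nat.divisors 40 := by
            rw [Nat.mem_divisors]
            exact ⟨h1, by norm_num⟩
          have h4 : ∀ d ∈ Nat.divisors 40, 10 ≤ d → 2 ∣ d := by decide +kernel
          exact h4 _ h3 hCcard
        obtain ⟨t, ht⟩ := exists_prime_orderOf_dvd_card' 2 hCeven
        have ht2 : ((t : A) : G) ^ 2 = 1 := by
          have := pow_orderOf_eq_one t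
          rw [ht] at this
          have h1 := congrArg (fun z : C => ((z : A) : G)) this
          simpa using h1
        have ht1 : ((t : A) : G) ≠ 1 := by
          intro h
          have : t = 1 := Subtype.ext (Subtype.ext h)
          rw [this, orderOf_one] at ht
          omega
        have hrZ : r ∈ Z := hinv _ (t : A).2.2 ht2 ht1 r hrP ((hCmem _).1 t.2)
        -- `Z` is generated by `r`
        have hz : Subgroup.zpowers r = Z := by
          apply Subgroup.eq_of_le_of_card_ge
          · rw [Subgroup.zpowers_le]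
            exact hrZ
          · rw [hZc, Nat.card_zpowers, orderOf_eq_prime hr5 hr1]
        rw [← hz, Subgroup.zpowers_le]
        exact hrK
    -- hence everything
    have hZne : Z ≠ ⊥ := by
      intro h
      rw [h] at hZc
      simp at hZc
    have hclosure : Subgroup.normalClosure (Z : Set G) ≤ K := by
      refine Subgroup.closure_le _ |>.2 ?_
      intro y hy
      rw [Group.mem_conjugatesOfSet_iff] at hy
      obtain ⟨z, hz, hy⟩ := hy
      obtain ⟨c, rfl⟩ := isConj_iff.1 hy
      obtain ⟨h, hh, hn⟩ := hKN c
      have h1 : (h⁻¹ * c) * z * (h⁻¹ * c)⁻¹ ∈ Z := hnormZ _ hn z hz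
      have h2 : c * z * c⁻¹ = h * ((h⁻¹ * c) * z * (h⁻¹ * c)⁻¹) * h⁻¹ := by group
      rw [SetLike.mem_coe, h2]
      exact K.mul_mem (K.mul_mem hh (hZK h1)) (K.inv_mem hh)
    have hnt : Subgroup.normalClosure (Z : Set G) = ⊤ := by
      rcases (Subgroup.normalClosure_normal (s := (Z : Set G))).eq_bot_or_eq_top with h | h
      · exfalso
        apply hZne
        rw [eq_bot_iff, ← h]
        exact Subgroup.subset_normalClosure
      · exact h
    rw [hnt] at hclosure
    exact top_le_iff.1 hclosure
  -- main argument
  by_contra hlt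
  push Not at hlt
  have hHc : 2520 < Nat.card H := by
    have h1 := H.card_mul_index
    rw [hG] at h1
    by_contra hle
    push Not at hle
    have : Nat.card H * H.index ≤ 2520 * 49 := Nat.mul_le_mul hle (by omega)
    omega
  -- a Sylow subgroup of `H`
  let Q : Sylow 5 H := Classical.arbitrary _
  -- `P` is a Sylow subgroup of `G`
  have hfact : Nat.card P = 5 ^ (Nat.card G).factorization 5 := by
    rw [hP, hG]
    have : (126000 : ℕ).factorization 5 = 3 := by
      have : (126000 : ℕ) = 5 ^ 3 * 1008 := by norm_num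
      rw [this, Nat.factorization_mul (by norm_num) (by norm_num), Nat.factorization_pow]
      have h1 : (5 : ℕ).factorization 5 = 1 := Nat.Prime.factorization_self (by norm_num)
      have h2 : (1008 : ℕ).factorization 5 = 0 := Nat.factorization_eq_zero_of_not_dvd (by norm_num)
      simp [h1, h2]
    rw [this]
    norm_num
  let SP : Sylow 5 G := Sylow.ofCard P hfact
  let Q' : Subgroup G := (Q : Subgroup H).map H.subtype
  have hQ' : IsPGroup 5 Q' := by
    have := Q.isPGroup'
    exact this.map H.subtype
  obtain ⟨S0, hS0⟩ := hQ'.exists_le_sylow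
  obtain ⟨g₀, hg₀⟩ := MulAction.exists_smul_eq G S0 SP
  let K : Subgroup G := H.map (MulAut.conj g₀).toMonoidHom
  have hKc : Nat.card K = Nat.card H :=
    Nat.card_congr (Subgroup.equivMapOfInjective _ _ (MulAut.conj g₀).injective).toEquiv.symm
  have hKtop : K = ⊤ := by
    apply core K (by rw [hKc]; exact hHc)
    rintro x ⟨y, hy, rfl⟩ hx1 hx5
    simp only [MulEquiv.coe_toMonoidHom, MulAut.conj_apply] at hx1 hx5 ⊢
    have hy5 : y ^ 5 = 1 := by
      have h1 : (g₀ * y * g₀⁻¹) ^ 5 = g₀ * y ^ 5 * g₀⁻¹ := conj_pow
      rw [h1] at hx5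
      have h2 : y ^ 5 = g₀⁻¹ * (g₀ * y ^ 5 * g₀⁻¹) * g₀ := by group
      rw [h2, hx5]
      group
    -- `y` is conjugate in `H` into `Q`
    let y' : H := ⟨y, hy⟩
    have hy'5 : y' ^ 5 = 1 := Subtype.ext (by simpa using hy5)
    have hpg : IsPGroup 5 (Subgroup.zpowers y') := by
      apply IsPGroup.of_card (n := 1)
      rw [Nat.card_zpowers, pow_one]
      apply orderOf_eq_prime hy'5
      intro h
      apply hx1
      have : y = 1 := congrArg Subtype.val h
      rw [this]
      group
    obtain ⟨S1, hS1⟩ := hpg.exists_le_sylow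
    obtain ⟨h, hh⟩ := MulAction.exists_smul_eq H S1 Q
    have hmem : y' ∈ (S1 : Subgroup H) := hS1 (Subgroup.mem_zpowers y')
    have h2 : h * y' * h⁻¹ ∈ (Q : Subgroup H) := by
      rw [← hh, Sylow.coe_subgroup_smul]
      exact ⟨y', hmem, by simp [MulAut.conj_apply]⟩
    -- move to `P`
    refine ⟨g₀ * (h⁻¹ : H) * g₀⁻¹, ⟨(h⁻¹ : H), (h⁻¹ : H).2, rfl⟩, ?_⟩
    have h3 : ((h : G) * y * (h : G)⁻¹) ∈ (S0 : Subgroup G) := hS0 ⟨_, h2, rfl⟩
    have h4 : g₀ * ((h : G) * y * (h : G)⁻¹) * g₀⁻¹ ∈ (SP : Subgroup G) := by
      rw [← hg₀, Sylow.coe_subgroup_smul]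
      refine ⟨_, h3, ?_⟩
      simp [MulAut.conj_apply]
      group
    have h5 : (g₀ * ((h⁻¹ : H) : G) * g₀⁻¹)⁻¹ * (g₀ * y * g₀⁻¹) * (g₀ * ((h⁻¹ : H) : G) * g₀⁻¹) =
        g₀ * ((h : G) * y * (h : G)⁻¹) * g₀⁻¹ := by
      simp only [InvMemClass.coe_inv]
      group
    rw [h5]
    exact h4
  apply hH
  -- pull back
  rw [eq_top_iff]
  intro x _
  have hx : g₀ * x * g₀⁻¹ ∈ K := by rw [hKtop]; exact Subgroup.mem_top _
  obtain ⟨y, hy, hye⟩ := hx
  simp only [MulEquiv.coe_toMonoidHom, MulAut.conj_apply] at hye
  have : y = x := by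
    have h1 := mul_left_cancel (a := g₀) (b := y * g₀⁻¹) (c := x * g₀⁻¹) (by simpa [mul_assoc] using hye)
    exact mul_right_cancel h1
  rwa [this] at hy

end Abs

end Cfsg.Agent.H16.U35
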