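import Mathlib

/-! An explicit field with twenty-five elements, computable in the kernel. -/

set_option autoImplicit false

namespace Cfsg.Agent.H16.U35

/-- The field with 25 elements: `a + 5 b` codes `a + b i`, `i² = 2`. -/
structure E25 where
  val : Fin 25
  deriving DecidableEq

namespace E25

def equivFin : E25 ≃ Fin 25 where
  toFun x := x.val
  invFun x := ⟨x⟩
  left_inv _ := rfl
  right_inv _ := rfl

instance : Fintype E25 := Fintype.ofEquiv _ equivFin.symm

/-- Reduction of a natural number to a code. -/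
def ofN (n : ℕ) : E25 := ⟨⟨Nat.mod n 25, Nat.mod_lt _ (by norm_num)⟩⟩

def re (x : E25) : ℕ := Nat.mod x.val.val 5
def im (x : E25) : ℕ := Nat.div x.val.val 5

def frm (a b : ℕ) : E25 := ofN (Nat.add (Nat.mod a 5) (Nat.mul 5 (Nat.mod b 5)))

instance : Zero E25 := ⟨ofN 0⟩
instance : One E25 := ⟨ofN 1⟩
instance : Add E25 := ⟨fun x y => frm (Nat.add (re x) (re y)) (Nat.add (im x) (im y))⟩
instance : Neg E25 := ⟨fun x => frm (Nat.sub 5 (re x)) (Nat.sub 5 (im x))⟩
instance : Sub E25 := ⟨fun x y => frm (Nat.add (re x) (Nat.sub 5 (re y))) (Nat.add (im x) (Nat.sub 5 (im y)))⟩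
instance : Mul E25 := ⟨fun x y => frm (Nat.add (Nat.mul (re x) (re y)) (Nat.mul 2 (Nat.mul (im x) (im y))))
  (Nat.add (Nat.mul (re x) (im y)) (Nat.mul (im x) (re y)))⟩
/-- The inverse: `(a - b i) / (a² - 2 b²)`, where `n⁻¹ = n³` modulo five. -/
def nrmI (x : E25) : ℕ :=
  Nat.pow (Nat.mod (Nat.add (Nat.mul (re x) (re x)) (Nat.mul 3 (Nat.mul (im x) (im x)))) 5) 3
instance : Inv E25 := ⟨fun x => frm (Nat.mul (re x) (nrmI x)) (Nat.mul (Nat.sub 5 (im x)) (nrmI x))⟩

theorem add_assoc' : ∀ a b c : E25, a + b + c = a + (b + c) := by decide +kernel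
theorem zero_add' : ∀ a : E25, 0 + a = a := by decide +kernel
theorem add_zero' : ∀ a : E25, a + 0 = a := by decide +kernel
theorem add_comm' : ∀ a b : E25, a + b = b + a := by decide +kernel
theorem neg_add_cancel' : ∀ a : E25, -a + a = 0 := by decide +kernel
theorem sub_eq_add_neg' : ∀ a b : E25, a - b = a + -b := by decide +kernel
theorem mul_assoc' : ∀ a b c : E25, a * b * c = a * (b * c) := by decide +kernel
theorem one_mul' : ∀ a : E25, 1 * a = a := by decide +kernel
theorem mul_one' : ∀ a : E25, a * 1 = a := by decide +kernel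
theorem mul_comm' : ∀ a b : E25, a * b = b * a := by decide +kernel
theorem zero_mul' : ∀ a : E25, 0 * a = 0 := by decide +kernel
theorem mul_zero' : ∀ a : E25, a * 0 = 0 := by decide +kernel
theorem left_distrib' : ∀ a b c : E25, a * (b + c) = a * b + a * c := by decide +kernel
theorem right_distrib' : ∀ a b c : E25, (a + b) * c = a * c + b * c := by decide +kernel
theorem mul_inv_cancel' : ∀ a : E25, a ≠ 0 → a * a⁻¹ = 1 := by decide +kernel
theorem inv_zero' : (0 : E25)⁻¹ = 0 := by decide +kernel
theorem zero_ne_one' : (0 : E25) ≠ 1 := by decide +kernel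

instance : CommRing E25 :=
  { add_assoc := add_assoc'
    zero_add := zero_add'
    add_zero := add_zero'
    add_comm := add_comm'
    neg_add_cancel := neg_add_cancel'
    sub_eq_add_neg := sub_eq_add_neg'
    mul_assoc := mul_assoc'
    one_mul := one_mul'
    mul_one := mul_one'
    mul_comm := mul_comm'
    zero_mul := zero_mul'
    mul_zero := mul_zero'
    left_distrib := left_distrib'
    right_distrib := right_distrib'
    nsmul := nsmulRec
    zsmul := zsmulRec }

noncomputable instance : Field E25 :=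
  { (inferInstance : CommRing E25) with
    inv := Inv.inv
    exists_pair_ne := ⟨0, 1, zero_ne_one'⟩
    mul_inv_cancel := mul_inv_cancel'
    inv_zero := inv_zero'
    nnqsmul := _
    nnqsmul_def := fun _ _ => rfl
    qsmul := _
    qsmul_def := fun _ _ => rfl }

theorem card_E25 : Fintype.card E25 = 25 := by decide +kernel

/-- The Frobenius map. -/
def fr (x : E25) : E25 := frm (re x) (Nat.sub 5 (im x))

theorem pow5 : ∀ x : E25, x ^ 5 = fr x := by decide +kernel
theorem fr_add : ∀ x y : E25, fr (x + y) = fr x + fr y := by decide +kernel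
theorem fr_mul : ∀ x y : E25, fr (x * y) = fr x * fr y := by decide +kernel
theorem fr_neg : ∀ x : E25, fr (-x) = - fr x := by decide +kernel
theorem fr_fr : ∀ x : E25, fr (fr x) = x := by decide +kernel
theorem fr_zero : fr 0 = 0 := by decide +kernel
theorem fr_one : fr 1 = 1 := by decide +kernel

end E25

end Cfsg.Agent.H16.U35
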