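import Cfsg.Agent.Lib.H16.U35.Mat

/-! The unitary group in a hyperbolic basis. -/

set_option autoImplicit false
set_option linter.unusedSectionVars false
set_option linter.unusedVariables false
set_option linter.unusedSimpArgs false
set_option linter.style.haveILetI false

namespace Cfsg.Agent.H16.U35

open E25 Matrix M3

noncomputable section

def TT : M3 := ⟨1, 0, 3, 2, 0, 4, 0, 1, 0⟩
def Ti : M3 := ⟨3, 4, 0, 0, 0, 1, 1, 2, 0⟩

theorem TT_Ti : TT.mul Ti = M3.one := by decide +kernel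
theorem Ti_TT : Ti.mul TT = M3.one := by decide +kernel

theorem TT_Ti' : TT.toM * Ti.toM = 1 := by rw [← toM_mul, TT_Ti, toM_one]
theorem Ti_TT' : Ti.toM * TT.toM = 1 := by rw [← toM_mul, Ti_TT, toM_one]

/-- The form in the hyperbolic basis. -/
def Hf (u v : V) : E25 := u 0 * fr (v 2) + u 1 * fr (v 1) + u 2 * fr (v 0)

theorem fr2 : fr 2 = 2 := by decide +kernel
theorem fr3 : fr 3 = 3 := by decide +kernel
theorem fr4 : fr 4 = 4 := by decide +kernel
theorem five0 : (5 : E25) = 0 := by decide +kernel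

theorem herm_TT (u v : V) : Cfsg.hermForm 3 E25 5 (TT.toM *ᵥ u) (TT.toM *ᵥ v) = Hf u v := by
  rw [herm_eq, toM_mulVec, toM_mulVec]
  simp only [Hf, TT, Matrix.cons_val_zero, Matrix.cons_val_one, Matrix.cons_val, fr_add, fr_mul, fr2, fr3, fr4, fr_zero, fr_one]
  linear_combination (u 0 * fr (v 0) + 2 * u 0 * fr (v 2) + 2 * u 2 * fr (v 0) + 5 * u 2 * fr (v 2)) * five0

/-- The matrix in the hyperbolic basis. -/
def mJ (g : SU3) : Matrix (Fin 3) (Fin 3) E25 := Ti.toM * mat g * TT.toM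

theorem mJ_mul (g h : SU3) : mJ (g * h) = mJ g * mJ h := by
  unfold mJ
  rw [mat_mul]
  calc Ti.toM * (mat g * mat h) * TT.toM = Ti.toM * mat g * (TT.toM * Ti.toM) * mat h * TT.toM := by
        rw [TT_Ti']; simp [Matrix.mul_assoc]
    _ = _ := by simp [Matrix.mul_assoc]

theorem mJ_one : mJ 1 = 1 := by
  unfold mJ
  rw [mat_one, Matrix.mul_one, Ti_TT']

theorem mat_of_mJ (g : SU3) : mat g = TT.toM * mJ g * Ti.toM := by
  unfold mJ
  calc mat g = (TT.toM * Ti.toM) * mat g * (TT.toM * Ti.toM) := by rw [TT_Ti']; simp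
    _ = _ := by simp [Matrix.mul_assoc]

theorem mJ_inj {g h : SU3} (e : mJ g = mJ h) : g = h := by
  apply mat_inj
  rw [mat_of_mJ, mat_of_mJ, e]

theorem hJ (g : SU3) (u v : V) : Hf (mJ g *ᵥ u) (mJ g *ᵥ v) = Hf u v := by
  rw [← herm_TT, ← herm_TT u v, ← mat_preserves g (TT.toM *ᵥ u) (TT.toM *ᵥ v)]
  have key : ∀ w : V, TT.toM *ᵥ (mJ g *ᵥ w) = mat g *ᵥ (TT.toM *ᵥ w) := by
    intro w
    rw [Matrix.mulVec_mulVec, Matrix.mulVec_mulVec]
    congr 1
    unfold mJ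
    calc TT.toM * (Ti.toM * mat g * TT.toM) = (TT.toM * Ti.toM) * mat g * TT.toM := by simp [Matrix.mul_assoc]
      _ = _ := by rw [TT_Ti']; simp
  rw [key, key]

theorem mJ_det (g : SU3) : (mJ g).det = 1 := by
  unfold mJ
  rw [Matrix.det_mul, Matrix.det_mul, mat_det, mul_one, ← Matrix.det_mul, Ti_TT', Matrix.det_one]

theorem rel (g : SU3) (i j : Fin 3) :
    mJ g 0 i * fr (mJ g 2 j) + mJ g 1 i * fr (mJ g 1 j) + mJ g 2 i * fr (mJ g 0 j) =
      Hf (Pi.single i 1) (Pi.single j 1) := by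
  have h := hJ g (Pi.single i 1) (Pi.single j 1)
  rw [← h]
  simp [Hf, Matrix.mulVec_single_one]

theorem r01 (g : SU3) : mJ g 0 0 * fr (mJ g 2 1) + mJ g 1 0 * fr (mJ g 1 1) + mJ g 2 0 * fr (mJ g 0 1) = 0 := by
  rw [rel]; simp [Hf, fr_zero, fr_one]
theorem r02 (g : SU3) : mJ g 0 0 * fr (mJ g 2 2) + mJ g 1 0 * fr (mJ g 1 2) + mJ g 2 0 * fr (mJ g 0 2) = 1 := by
  rw [rel]; simp [Hf, fr_zero, fr_one]
theorem r12 (g : SU3) : mJ g 0 1 * fr (mJ g 2 2) + mJ g 1 1 * fr (mJ g 1 2) + mJ g 2 1 * fr (mJ g 0 2) = 0 := by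
  rw [rel]; simp [Hf, fr_zero, fr_one]
theorem r22 (g : SU3) : mJ g 0 2 * fr (mJ g 2 2) + mJ g 1 2 * fr (mJ g 1 2) + mJ g 2 2 * fr (mJ g 0 2) = 0 := by
  rw [rel]; simp [Hf, fr_zero, fr_one]

theorem fr_eq_zero : ∀ x : E25, fr x = 0 → x = 0 := by decide +kernel
theorem fr_eq_one : ∀ x : E25, fr x = 1 → x = 1 := by decide +kernel

/-! ### The Borel subgroup -/

def Bt : Subgroup SU3 := toSub
  { carrier := {g | mJ g 1 0 = 0 ∧ mJ g 2 0 = 0}
    mul_mem' := by
      rintro g h ⟨h1, h2⟩ ⟨h3, h4⟩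
      constructor
      · rw [mJ_mul, Matrix.mul_apply, Fin.sum_univ_three, h1, h3, h4]; simp
      · rw [mJ_mul, Matrix.mul_apply, Fin.sum_univ_three, h2, h3, h4]; simp
    one_mem' := by
      constructor <;> simp [mJ_one] }

theorem mem_Bt {g : SU3} : g ∈ Bt ↔ mJ g 1 0 = 0 ∧ mJ g 2 0 = 0 := Iff.rfl

def Pt : Subgroup SU3 := toSub
  { carrier := {g | mJ g 0 0 = 1 ∧ mJ g 1 0 = 0 ∧ mJ g 2 0 = 0}
    mul_mem' := by
      rintro g h ⟨h0, h1, h2⟩ ⟨h5, h3, h4⟩
      refine ⟨?_, ?_, ?_⟩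
      · rw [mJ_mul, Matrix.mul_apply, Fin.sum_univ_three, h0, h5, h3, h4]; simp
      · rw [mJ_mul, Matrix.mul_apply, Fin.sum_univ_three, h1, h3, h4]; simp
      · rw [mJ_mul, Matrix.mul_apply, Fin.sum_univ_three, h2, h3, h4]; simp
    one_mem' := by
      refine ⟨?_, ?_, ?_⟩ <;> simp [mJ_one] }

theorem mem_Pt {g : SU3} : g ∈ Pt ↔ mJ g 0 0 = 1 ∧ mJ g 1 0 = 0 ∧ mJ g 2 0 = 0 := Iff.rfl

theorem Pt_le_Bt : Pt ≤ Bt := fun g h => ⟨h.2.1, h.2.2⟩

/-- Structure of the Borel subgroup. -/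
theorem Bt_struct {g : SU3} (hg : g ∈ Bt) :
    mJ g 0 0 ≠ 0 ∧ mJ g 2 1 = 0 ∧ fr (mJ g 0 0) * mJ g 2 2 = 1 ∧ mJ g 0 0 * mJ g 1 1 = fr (mJ g 0 0) := by
  obtain ⟨h1, h2⟩ := hg
  have e2 := r02 g
  rw [h1, h2] at e2
  simp only [zero_mul, add_zero] at e2
  have ha : mJ g 0 0 ≠ 0 := by
    intro h
    rw [h, zero_mul] at e2
    exact zero_ne_one e2
  have e1 := r01 g
  rw [h1, h2] at e1
  simp only [zero_mul, add_zero] at e1
  have h21 : mJ g 2 1 = 0 := by
    apply fr_eq_zero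
    exact (mul_eq_zero.1 e1).resolve_left ha
  have e3 : fr (mJ g 0 0) * mJ g 2 2 = 1 := by
    have := congrArg fr e2
    rwa [fr_mul, fr_fr, fr_one] at this
  have hd := mJ_det g
  rw [Matrix.det_fin_three, h1, h2, h21] at hd
  simp only [zero_mul, mul_zero, sub_zero, zero_sub, add_zero] at hd
  refine ⟨ha, h21, e3, ?_⟩
  have hd' : mJ g 0 0 * mJ g 1 1 * mJ g 2 2 = 1 := by simpa using hd
  have hne : mJ g 2 2 ≠ 0 := by
    intro h
    rw [h, mul_zero] at e3
    exact zero_ne_one e3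
  apply mul_right_cancel₀ hne
  rw [hd', e3]

/-- The unipotent matrices. -/
def mM (s y : E25) : M3 := ⟨1, s, y, 0, 1, - fr s, 0, 0, 1⟩

def conjT (m : M3) : M3 := TT.mul (m.mul Ti)

theorem good_mM : ∀ s y : E25, y + fr y + s * fr s = 0 → Good (conjT (mM s y)) := by decide +kernel

/-- The diagonal matrices. -/
def dg (a : E25) : M3 := ⟨a, 0, 0, 0, fr a * a⁻¹, 0, 0, 0, (fr a)⁻¹⟩

theorem good_dg : ∀ a : E25, a ≠ 0 → Good (conjT (dg a)) := by decide +kernel

theorem mJ_lift (m : M3) (h : Good (conjT m)) : mJ (lift (conjT m) h) = m.toM := by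
  unfold mJ mat
  rw [lift_coe]
  unfold conjT
  rw [toM_mul, toM_mul]
  calc Ti.toM * (TT.toM * (m.toM * Ti.toM)) * TT.toM = (Ti.toM * TT.toM) * m.toM * (Ti.toM * TT.toM) := by
        simp [Matrix.mul_assoc]
    _ = _ := by rw [Ti_TT']; simp

theorem Pt_struct {g : SU3} (hg : g ∈ Pt) :
    mJ g = (mM (mJ g 0 1) (mJ g 0 2)).toM ∧ mJ g 0 2 + fr (mJ g 0 2) + mJ g 0 1 * fr (mJ g 0 1) = 0 := by
  obtain ⟨h0, h1, h2⟩ := hg
  obtain ⟨-, h21, e3, e4⟩ := Bt_struct (g := g) ⟨h1, h2⟩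
  rw [h0, fr_one, one_mul] at e3 e4
  have h11 := e4
  have h22 : mJ g 2 2 = 1 := e3
  have e5 := r12 g
  rw [h11, h21, h22, fr_one, mul_one, one_mul, zero_mul, add_zero] at e5
  have h12 : mJ g 1 2 = - fr (mJ g 0 1) := by
    have h3 : fr (mJ g 1 2) = - mJ g 0 1 := by
      linear_combination e5
    have := congrArg fr h3
    rwa [fr_fr, fr_neg] at this
  have e6 := r22 g
  rw [h22, fr_one, mul_one, one_mul, h12, fr_neg, fr_fr] at e6
  refine ⟨?_, ?_⟩
  · ext i j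
    fin_cases i <;> fin_cases j <;> simp [toM, mM, h0, h1, h2, h11, h12, h21, h22]
  · linear_combination e6

/-- The elements of `Pt`. -/
def liftP (s y : E25) (h : y + fr y + s * fr s = 0) : SU3 := lift (conjT (mM s y)) (good_mM s y h)

theorem mJ_liftP (s y : E25) (h : y + fr y + s * fr s = 0) : mJ (liftP s y h) = (mM s y).toM :=
  mJ_lift _ _

theorem liftP_mem (s y : E25) (h : y + fr y + s * fr s = 0) : liftP s y h ∈ Pt := by
  rw [mem_Pt, mJ_liftP]
  simp [toM, mM]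

theorem card_param : Fintype.card {p : E25 × E25 // p.2 + fr p.2 + p.1 * fr p.1 = 0} = 125 := by decide +kernel

theorem card_Pt : Nat.card Pt = 125 := by
  let e : Pt ≃ {p : E25 × E25 // p.2 + fr p.2 + p.1 * fr p.1 = 0} :=
    { toFun := fun g => ⟨(mJ g 0 1, mJ g 0 2), (Pt_struct g.2).2⟩
      invFun := fun p => ⟨liftP p.1.1 p.1.2 p.2, liftP_mem _ _ _⟩
      left_inv := by
        intro g
        apply Subtype.ext
        apply mJ_inj
        rw [mJ_liftP]
        exact (Pt_struct g.2).1.symm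
      right_inv := by
        rintro ⟨⟨s, y⟩, h⟩
        apply Subtype.ext
        simp only [mJ_liftP]
        simp [toM, mM] }
  rw [Nat.card_congr e, Nat.card_eq_fintype_card, card_param]

/-- The central part. -/
def Zt : Subgroup SU3 := toSub
  { carrier := {g | g ∈ Pt ∧ mJ g 0 1 = 0}
    mul_mem' := by
      rintro g h ⟨h0, h1⟩ ⟨h2, h3⟩
      refine ⟨Pt.mul_mem h0 h2, ?_⟩
      have e1 := (Pt_struct h2).1
      rw [mJ_mul, Matrix.mul_apply, Fin.sum_univ_three, h1, h3, mem_Pt.1 h0 |>.1]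
      rw [e1]
      simp [toM, mM]
    one_mem' := by
      refine ⟨Pt.one_mem, ?_⟩
      simp [mJ_one] }

theorem mem_Zt {g : SU3} : g ∈ Zt ↔ g ∈ Pt ∧ mJ g 0 1 = 0 := Iff.rfl

theorem card_paramZ : Fintype.card {y : E25 // y + fr y = 0} = 5 := by decide +kernel

theorem card_Zt : Nat.card Zt = 5 := by
  have hZ : ∀ g : Zt, mJ g 0 2 + fr (mJ g 0 2) = 0 := by
    intro g
    have h := (Pt_struct g.2.1).2
    rw [g.2.2] at h
    simpa using h
  have hp : ∀ y : E25, y + fr y = 0 → y + fr y + 0 * fr 0 = 0 := by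
    intro y h
    simpa using h
  let e : Zt ≃ {y : E25 // y + fr y = 0} :=
    { toFun := fun g => ⟨mJ g 0 2, hZ g⟩
      invFun := fun p => ⟨liftP 0 p.1 (hp _ p.2), by
        refine ⟨liftP_mem _ _ _, ?_⟩
        rw [mJ_liftP]
        simp [toM, mM]⟩
      left_inv := by
        intro g
        apply Subtype.ext
        apply mJ_inj
        rw [mJ_liftP, (Pt_struct g.2.1).1, g.2.2]
        try simp [toM, mM, fr_zero]
      right_inv := by
        rintro ⟨y, h⟩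
        apply Subtype.ext
        simp only [mJ_liftP]
        try simp [toM, mM] }
  rw [Nat.card_congr e, Nat.card_eq_fintype_card, card_paramZ]

theorem Zt_le_Pt : Zt ≤ Pt := fun g h => h.1

/-- The character of the Borel subgroup. -/
def chi : Bt →* E25ˣ where
  toFun g := Units.mk0 (mJ g 0 0) (Bt_struct g.2).1
  map_one' := by
    apply Units.ext
    simp [mJ_one]
  map_mul' g h := by
    apply Units.ext
    obtain ⟨h1, h2⟩ := h.2
    simp only [Subgroup.coe_mul, Units.val_mk0, Units.val_mul, mJ_mul]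
    rw [Matrix.mul_apply, Fin.sum_univ_three, h1, h2]
    simp

theorem chi_val (g : Bt) : ((chi g : E25ˣ) : E25) = mJ g 0 0 := rfl

def liftD (a : E25) (h : a ≠ 0) : SU3 := lift (conjT (dg a)) (good_dg a h)

theorem mJ_liftD (a : E25) (h : a ≠ 0) : mJ (liftD a h) = (dg a).toM := mJ_lift _ _

theorem chi_surj : Function.Surjective chi := by
  intro u
  refine ⟨⟨liftD u u.ne_zero, ?_⟩, ?_⟩
  · rw [mem_Bt, mJ_liftD]
    simp [toM, dg]
  · apply Units.ext
    rw [chi_val]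
    simp only [mJ_liftD]
    simp [toM, dg]

theorem card_units : Nat.card E25ˣ = 24 := by
  rw [Nat.card_eq_fintype_card, Fintype.card_units, card_E25]

theorem chi_ker (g : Bt) : g ∈ chi.ker ↔ (g : SU3) ∈ Pt := by
  rw [MonoidHom.mem_ker]
  constructor
  · intro h
    have h1 := congrArg Units.val h
    rw [chi_val] at h1
    exact ⟨h1, g.2.1, g.2.2⟩
  · intro h
    apply Units.ext
    rw [chi_val]
    exact h.1

theorem card_Bt : Nat.card Bt = 3000 := by
  have h1 := Subgroup.card_eq_card_quotient_mul_card_subgroup chi.ker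
  have h2 : Nat.card (Bt ⧸ chi.ker) = 24 := by
    rw [Nat.card_congr (QuotientGroup.quotientKerEquivOfSurjective chi chi_surj).toEquiv, card_units]
  have h3 : Nat.card chi.ker = 125 := by
    rw [← card_Pt]
    refine Nat.card_congr ?_
    exact
      { toFun := fun g => ⟨g.1.1, (chi_ker g.1).1 g.2⟩
        invFun := fun g => ⟨⟨g.1, Pt_le_Bt g.2⟩, (chi_ker _).2 g.2⟩
        left_inv := fun g => rfl
        right_inv := fun g => rfl }
  rw [h1, h2, h3]

theorem center_le_Bt : Subgroup.center SU3 ≤ Bt := by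
  intro z hz
  have h := center_scalar hz
  have hm : mJ z = (mat z 0 0) • (1 : Matrix (Fin 3) (Fin 3) E25) := by
    unfold mJ
    rw [h, Matrix.mul_smul, Matrix.smul_mul]
    simp only [Matrix.mul_one, Ti_TT']
    simp
  rw [mem_Bt, hm]
  simp

theorem mJ_center {z : SU3} (hz : z ∈ Subgroup.center SU3) : mJ z = (mJ z 0 0) • (1 : Matrix (Fin 3) (Fin 3) E25) := by
  have h := center_scalar hz
  have hm : mJ z = (mat z 0 0) • (1 : Matrix (Fin 3) (Fin 3) E25) := by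
    unfold mJ
    rw [h, Matrix.mul_smul, Matrix.smul_mul]
    simp only [Matrix.mul_one, Ti_TT']
    simp
  have h0 : mJ z 0 0 = mat z 0 0 := by
    rw [hm]; simp
  rw [h0]
  exact hm

theorem Pt_center_trivial {z : SU3} (hz : z ∈ Subgroup.center SU3) (hP : z ∈ Pt) : z = 1 := by
  apply mJ_inj
  rw [mJ_center hz, hP.1, mJ_one, one_smul]

end

end Cfsg.Agent.H16.U35
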