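import Cfsg.Agent.Lib.H16.U35.Jv
import Cfsg.Agent.Lib.H16.U35.Abs

/-! The local analysis at the prime five for the projective unitary group. -/

set_option autoImplicit false
set_option linter.unusedSectionVars false
set_option linter.unusedVariables false
set_option linter.unusedSimpArgs false
set_option linter.style.haveILetI false

namespace Cfsg.Agent.H16.U35

open E25 Matrix M3

noncomputable section

/-- The projection. -/
def pr : SU3 →* G := QuotientGroup.mk' (Subgroup.center SU3)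

theorem pr_surj : Function.Surjective pr := QuotientGroup.mk'_surjective _

theorem pr_ker : pr.ker = Subgroup.center SU3 := QuotientGroup.ker_mk' _

theorem pr_eq_one {g : SU3} : pr g = 1 ↔ g ∈ Subgroup.center SU3 := by
  exact QuotientGroup.eq_one_iff g

theorem pr_eq {g h : SU3} : pr g = pr h ↔ h⁻¹ * g ∈ Subgroup.center SU3 := by
  rw [← pr_eq_one, map_mul, map_inv, inv_mul_eq_iff_eq_mul, mul_one]

theorem card_map_inj {L : Subgroup SU3} (h : ∀ z ∈ L, z ∈ Subgroup.center SU3 → z = 1) :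
    Nat.card (L.map pr) = Nat.card L := by
  symm
  refine Nat.card_congr (Equiv.ofBijective (pr.subgroupMap L) ⟨?_, pr.subgroupMap_surjective L⟩)
  intro x y hxy
  have h1 : pr x = pr y := congrArg Subtype.val hxy
  have h2 := pr_eq.1 h1
  have h3 := h _ (L.mul_mem (L.inv_mem y.2) x.2) h2
  apply Subtype.ext
  exact (inv_mul_eq_one.1 h3).symm

theorem index_map_center {L : Subgroup SU3} (h : Subgroup.center SU3 ≤ L) : (L.map pr).index = L.index := by
  rw [Subgroup.index_map, pr_ker, sup_eq_left.2 h, MonoidHom.range_eq_top.2 pr_surj, Subgroup.index_top, mul_one]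

theorem mM00 (s t : E25) : (mM s t).toM 0 0 = 1 := rfl
theorem mM01 (s t : E25) : (mM s t).toM 0 1 = s := rfl
theorem mM02 (s t : E25) : (mM s t).toM 0 2 = t := rfl
theorem mM10 (s t : E25) : (mM s t).toM 1 0 = 0 := rfl
theorem mM11 (s t : E25) : (mM s t).toM 1 1 = 1 := rfl
theorem mM12 (s t : E25) : (mM s t).toM 1 2 = - fr s := rfl
theorem mM20 (s t : E25) : (mM s t).toM 2 0 = 0 := rfl
theorem mM21 (s t : E25) : (mM s t).toM 2 1 = 0 := rfl
theorem mM22 (s t : E25) : (mM s t).toM 2 2 = 1 := rfl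

theorem r00 (g : SU3) : mJ g 0 0 * fr (mJ g 2 0) + mJ g 1 0 * fr (mJ g 1 0) + mJ g 2 0 * fr (mJ g 0 0) = 0 := by
  rw [rel]; simp [Hf, fr_zero, fr_one]

def P0 : Subgroup G := Pt.map pr
def N0 : Subgroup G := Bt.map pr
def Z0 : Subgroup G := Zt.map pr

theorem card_P0 : Nat.card P0 = 125 := by
  rw [P0, card_map_inj (fun z hz hc => Pt_center_trivial hc hz), card_Pt]

theorem card_Z0 : Nat.card Z0 = 5 := by
  rw [Z0, card_map_inj (fun z hz hc => Pt_center_trivial hc (Zt_le_Pt hz)), card_Zt]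

theorem index_Bt : Bt.index = 126 := by
  have h := Bt.card_mul_index
  rw [card_Bt, card_SU3] at h
  omega

theorem card_N0 : Nat.card N0 = 1000 := by
  have h1 := N0.card_mul_index
  have h2 : N0.index = 126 := by
    rw [N0, index_map_center center_le_Bt, index_Bt]
  rw [h2, card_SU_G] at h1
  omega

theorem P0_le : P0 ≤ N0 := Subgroup.map_mono Pt_le_Bt
theorem Z0_le : Z0 ≤ P0 := Subgroup.map_mono Zt_le_Pt

theorem Pt_conj {g y : SU3} (hg : g ∈ Bt) (hy : y ∈ Pt) : g * y * g⁻¹ ∈ Pt := by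
  have h1 : (⟨y, Pt_le_Bt hy⟩ : Bt) ∈ chi.ker := (chi_ker _).2 hy
  have h2 := (chi_ker _).1 ((inferInstance : chi.ker.Normal).conj_mem _ h1 ⟨g, hg⟩)
  exact h2

theorem Zt_conj {g y : SU3} (hg : g ∈ Bt) (hy : y ∈ Zt) : g * y * g⁻¹ ∈ Zt := by
  have hx := Pt_conj hg hy.1
  refine ⟨hx, ?_⟩
  obtain ⟨x, hxdef⟩ : ∃ x, x = g * y * g⁻¹ := ⟨_, rfl⟩
  rw [← hxdef] at hx ⊢
  have e : x * g = g * y := by rw [hxdef]; group
  have e1 : mJ (x * g) 0 1 = mJ (g * y) 0 1 := by rw [e]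
  rw [mJ_mul, mJ_mul, Matrix.mul_apply, Matrix.mul_apply, Fin.sum_univ_three, Fin.sum_univ_three] at e1
  obtain ⟨ha, h21, -, h4⟩ := Bt_struct hg
  have hy1 := (Pt_struct hy.1).1
  rw [hy1] at e1
  rw [hy.2] at e1
  have hx0 := hx.1
  rw [hx0, h21] at e1
  simp only [mM01, mM11, mM21] at e1
  have hb : mJ g 1 1 ≠ 0 := by
    intro h
    rw [h, mul_zero] at h4
    have := fr_eq_zero _ h4.symm
    exact ha this
  have e2 : mJ x 0 1 * mJ g 1 1 = 0 := by linear_combination e1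
  exact (mul_eq_zero.1 e2).resolve_right hb

theorem pow_mem_ker {A B : Type*} [Group A] [Group B] (f : A →* B) (x : A) (n : ℕ) (h : f x ^ n = 1) : x ^ n ∈ f.ker := by
  rw [MonoidHom.mem_ker, map_pow, h]

theorem Bt_pow {g : SU3} (hg : g ∈ Bt) : g ^ 24 ∈ Pt := by
  have h2 : (chi ⟨g, hg⟩) ^ (Nat.card E25ˣ) = 1 := pow_card_eq_one'
  rw [card_units] at h2
  have h1 := pow_mem_ker chi _ 24 h2
  have h3 := (chi_ker _).1 h1
  rw [Subgroup.coe_pow] at h3
  exact h3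

theorem tr_Pt {x : SU3} (hx : x ∈ Pt) : Matrix.trace (mJ x) = 1 + 1 + 1 := by
  rw [(Pt_struct hx).1]
  simp [toM, mM, Matrix.trace_fin_three]

theorem three_cancel : ∀ t : E25, t * (1 + 1 + 1) = 1 + 1 + 1 → t = 1 := by decide +kernel

theorem mJ_inv_mul (g : SU3) : mJ g⁻¹ * mJ g = 1 := by
  rw [← mJ_mul, inv_mul_cancel, mJ_one]

theorem center_eq_one_of {z : SU3} (hz : z ∈ Subgroup.center SU3) (h : mJ z 0 0 = 1) : z = 1 := by
  apply mJ_inj
  rw [mJ_center hz, h, one_smul, mJ_one]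

theorem conj_lift {g x y z : SU3} (hx : x ∈ Pt) (hy : y ∈ Pt) (hz : z ∈ Subgroup.center SU3)
    (e : g * x * g⁻¹ = y * z) : z = 1 := by
  apply center_eq_one_of hz
  apply three_cancel
  have h1 : Matrix.trace (mJ (g * x * g⁻¹)) = 1 + 1 + 1 := by
    rw [mJ_mul, mJ_mul, Matrix.trace_mul_comm, ← Matrix.mul_assoc, mJ_inv_mul, Matrix.one_mul, tr_Pt hx]
  rw [e, mJ_mul, mJ_center hz, Matrix.mul_smul, Matrix.mul_one, Matrix.trace_smul, tr_Pt hy] at h1
  simpa using h1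

/-- The fixed vector argument. -/
theorem fix_Bt {g x y : SU3} (hx : x ∈ Pt) (hy : y ∈ Pt) (hy1 : y ≠ 1) (e : g * x = y * g) : g ∈ Bt := by
  have hX := (Pt_struct hx).1
  have hY := (Pt_struct hy).1
  set s := mJ y 0 1 with hs
  set t := mJ y 0 2 with ht
  have e0 : mJ (g * x) = mJ (y * g) := by rw [e]
  rw [mJ_mul, mJ_mul, hX, hY] at e0
  have h0 := congrFun (congrFun e0 0) 0
  have h1 := congrFun (congrFun e0 1) 0
  rw [Matrix.mul_apply, Matrix.mul_apply, Fin.sum_univ_three, Fin.sum_univ_three] at h0 h1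
  simp only [mM00, mM01, mM02, mM10, mM11, mM12, mM20, mM21, mM22] at h0 h1
  have hst : ¬ (s = 0 ∧ t = 0) := by
    rintro ⟨h3, h4⟩
    apply hy1
    apply mJ_inj
    rw [hY, h3, h4, mJ_one, ← toM_one]
    try congr 1
  have hr := r00 g
  have h0' : s * mJ g 1 0 + t * mJ g 2 0 = 0 := by linear_combination -h0
  have h1' : fr s * mJ g 2 0 = 0 := by linear_combination h0 * 0 + h1
  rw [mem_Bt]
  rcases eq_or_ne s 0 with hs0 | hs0
  · have ht0 : t ≠ 0 := fun h => hst ⟨hs0, h⟩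
    rw [hs0, zero_mul, zero_add] at h0'
    have h20 : mJ g 2 0 = 0 := (mul_eq_zero.1 h0').resolve_left ht0
    rw [h20, fr_zero] at hr
    have hr' : mJ g 1 0 * fr (mJ g 1 0) = 0 := by linear_combination hr
    have h10 : mJ g 1 0 = 0 := by
      rcases mul_eq_zero.1 hr' with h | h
      · exact h
      · exact fr_eq_zero _ h
    exact ⟨h10, h20⟩
  · have hfs : fr s ≠ 0 := fun h => hs0 (fr_eq_zero _ h)
    have h20 : mJ g 2 0 = 0 := (mul_eq_zero.1 h1').resolve_left hfs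
    rw [h20, mul_zero, add_zero] at h0'
    have h10 : mJ g 1 0 = 0 := (mul_eq_zero.1 h0').resolve_left hs0
    exact ⟨h10, h20⟩

theorem TI_G (g x : G) (hx : x ∈ P0) (hx1 : x ≠ 1) (hc : g * x * g⁻¹ ∈ P0) : g ∈ N0 := by
  obtain ⟨x', hx', rfl⟩ := hx
  obtain ⟨y', hy', hye⟩ := hc
  obtain ⟨g', rfl⟩ := pr_surj g
  have hx'1 : x' ≠ 1 := by
    rintro rfl
    exact hx1 (map_one _)
  have hc1 : pr y' = pr (g' * x' * g'⁻¹) := by
    rw [hye, map_mul, map_mul, map_inv]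
  have hz := pr_eq.1 hc1
  set z := (g' * x' * g'⁻¹)⁻¹ * y' with hzdef
  have hz' : pr (y'⁻¹ * (g' * x' * g'⁻¹)) = 1 := by
    rw [map_mul, map_inv, hc1, inv_mul_cancel]
  have hz2 := pr_eq_one.1 hz'
  have e1 : g' * x' * g'⁻¹ = y' * (y'⁻¹ * (g' * x' * g'⁻¹)) := by group
  have h1 := conj_lift hx' hy' hz2 e1
  have e2 : g' * x' * g'⁻¹ = y' := by
    rw [e1, h1, mul_one]
  have hy'1 : y' ≠ 1 := by
    rintro rfl
    apply hx'1
    have h3 : x' = g'⁻¹ * (g' * x' * g'⁻¹) * g' := by group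
    rw [h3, e2]
    group
  have e3 : g' * x' = y' * g' := by
    rw [← e2]
    group
  exact ⟨g', fix_Bt hx' hy' hy'1 e3, rfl⟩

theorem comm_lift {g r : SU3} (hg : g ∈ Bt) (hr : r ∈ Pt) (e : pr g * pr r = pr r * pr g) : g * r = r * g := by
  have h1 : pr (g * r) = pr (r * g) := by rw [map_mul, map_mul, e]
  have hz := pr_eq.1 h1
  obtain ⟨z, hzdef⟩ : ∃ z, z = (r * g)⁻¹ * (g * r) := ⟨_, rfl⟩
  rw [← hzdef] at hz
  have e2 : g * r = (r * g) * z := by rw [hzdef]; group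
  have hR := (Pt_struct hr).1
  have e3 : mJ (g * r) 0 0 = mJ (r * g * z) 0 0 := by rw [← e2]
  rw [mJ_mul, mJ_mul, mJ_mul, mJ_center hz, hR] at e3
  simp only [Matrix.mul_smul, Matrix.mul_one, Matrix.smul_apply, smul_eq_mul] at e3
  rw [Matrix.mul_apply, Matrix.mul_apply, Fin.sum_univ_three, Fin.sum_univ_three] at e3
  have hg1 := hg.1
  have hg2 := hg.2
  simp only [mM00, mM01, mM02, mM10, mM11, mM12, mM20, mM21, mM22, hg1, hg2] at e3
  obtain ⟨ha, -, -, -⟩ := Bt_struct hg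
  have hz1 : mJ z 0 0 = 1 := by
    have h5 : mJ g 0 0 * (mJ z 0 0 - 1) = 0 := by linear_combination -e3
    have := (mul_eq_zero.1 h5).resolve_left ha
    exact sub_eq_zero.1 this
  have : z = 1 := center_eq_one_of hz hz1
  rw [e2, this, mul_one]

theorem sq_three : ∀ a : E25, a ≠ 0 → a * a = fr a → a ^ 3 = 1 := by decide +kernel

theorem inv_G (t : G) (ht : t ∈ N0) (h2 : t ^ 2 = 1) (h1 : t ≠ 1) (r : G) (hr : r ∈ P0) (e : t * r = r * t) : r ∈ Z0 := by
  obtain ⟨g, hg, rfl⟩ := ht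
  obtain ⟨r', hr', rfl⟩ := hr
  have e1 := comm_lift hg hr' e
  have hR := (Pt_struct hr').1
  have e2 : mJ (g * r') 0 1 = mJ (r' * g) 0 1 := by rw [e1]
  rw [mJ_mul, mJ_mul, hR] at e2
  rw [Matrix.mul_apply, Matrix.mul_apply, Fin.sum_univ_three, Fin.sum_univ_three] at e2
  obtain ⟨ha, h21, -, h4⟩ := Bt_struct hg
  simp only [mM00, mM01, mM02, mM10, mM11, mM12, mM20, mM21, mM22, h21] at e2
  by_cases hs : mJ r' 0 1 = 0
  · exact ⟨r', ⟨hr', hs⟩, rfl⟩
  exfalso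
  apply h1
  have h5 : mJ g 0 0 = mJ g 1 1 := by
    have h6 : (mJ g 0 0 - mJ g 1 1) * mJ r' 0 1 = 0 := by linear_combination e2
    exact sub_eq_zero.1 ((mul_eq_zero.1 h6).resolve_right hs)
  rw [← h5] at h4
  have h3 := sq_three _ ha h4
  have hg3 : g ^ 3 ∈ Pt := by
    have h8 : (chi ⟨g, hg⟩) ^ 3 = 1 := by
      apply Units.ext
      rw [Units.val_pow_eq_pow_val, chi_val, Units.val_one]
      exact h3
    have h7 := pow_mem_ker chi _ 3 h8
    have h9 := (chi_ker _).1 h7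
    rw [Subgroup.coe_pow] at h9
    exact h9
  have h8 : pr g ∈ P0 := by
    have h9 : pr g = pr (g ^ 3) := by
      rw [map_pow, pow_succ, h2, one_mul]
    rw [h9]
    exact ⟨_, hg3, rfl⟩
  have h10 : (pr g) ^ 125 = 1 := by
    have := pow_card_eq_one' (G := P0) (x := ⟨pr g, h8⟩)
    rw [card_P0] at this
    have h11 := congrArg Subtype.val this
    simpa using h11
  have h12 : pr g = (pr g) ^ 125 := by
    rw [show (125 : ℕ) = 2 * 62 + 1 by norm_num, pow_add, pow_mul, h2, one_pow, one_mul, pow_one]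
  rw [h12, h10]

theorem Zcomm : ∀ y s t : E25, (mM 0 y).mul (mM s t) = (mM s t).mul (mM 0 y) := by decide +kernel

theorem Zt_comm {z x : SU3} (hz : z ∈ Zt) (hx : x ∈ Pt) : z * x = x * z := by
  apply mJ_inj
  have h1 := (Pt_struct hz.1).1
  rw [hz.2] at h1
  rw [mJ_mul, mJ_mul, h1, (Pt_struct hx).1, ← toM_mul, ← toM_mul, Zcomm]

theorem h_s1 : (2 : E25) + fr 2 + 1 * fr 1 = 0 := by decide +kernel
theorem h_s2 : (1 : E25) + fr 1 + ofN 5 * fr (ofN 5) = 0 := by decide +kernel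
theorem ne_s : (mM 1 2).mul (mM (ofN 5) 1) ≠ (mM (ofN 5) 1).mul (mM 1 2) := by decide +kernel

theorem nc_G : ∃ x ∈ P0, ∃ y ∈ P0, x * y ≠ y * x := by
  refine ⟨pr (liftP 1 2 h_s1), ⟨_, liftP_mem _ _ _, rfl⟩, pr (liftP (ofN 5) 1 h_s2), ⟨_, liftP_mem _ _ _, rfl⟩, ?_⟩
  intro e
  have h1 := comm_lift (Pt_le_Bt (liftP_mem _ _ _)) (liftP_mem _ _ _) e
  have h2 := congrArg mJ h1
  rw [mJ_mul, mJ_mul, mJ_liftP, mJ_liftP, ← toM_mul, ← toM_mul] at h2
  exact ne_s (toM_inj h2)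

/-- Every proper subgroup has index at least fifty. -/
theorem part1 (H : Subgroup G) (hH : H ≠ ⊤) : 50 ≤ H.index := by
  refine index_ge_of_local card_SU_G P0 N0 Z0 card_P0 card_N0 card_Z0 P0_le Z0_le ?_ ?_ ?_ TI_G ?_ nc_G inv_G H hH
  · rintro _ ⟨g, hg, rfl⟩ _ ⟨y, hy, rfl⟩
    exact ⟨_, Pt_conj hg hy, by rw [map_mul, map_mul, map_inv]⟩
  · rintro _ ⟨g, hg, rfl⟩ _ ⟨y, hy, rfl⟩
    exact ⟨_, Zt_conj hg hy, by rw [map_mul, map_mul, map_inv]⟩
  · rintro _ ⟨g, hg, rfl⟩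
    exact ⟨_, Bt_pow hg, map_pow _ _ _⟩
  · rintro _ ⟨z, hz, rfl⟩ _ ⟨x, hx, rfl⟩
    rw [← map_mul, ← map_mul, Zt_comm hz hx]

end

end Cfsg.Agent.H16.U35
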