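import Cfsg.Agent.Lib.H16.U35.E25
import Cfsg.Agent.Lib.Lead.SUCenter
import Cfsg.Agent.Lib.Lead.PSUSimple

/-! Kernel-friendly matrices over the field with 25 elements and the unitary group. -/

set_option autoImplicit false
set_option linter.unusedSectionVars false
set_option linter.unusedVariables false
set_option linter.unusedSimpArgs false
set_option linter.style.haveILetI false

namespace Cfsg.Agent.H16.U35

open E25 Matrix

abbrev V := Fin 3 → E25
noncomputable abbrev SU3 := Cfsg.SU 3 E25 5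
noncomputable abbrev G := Cfsg.PSU 3 E25 5

/-- Explicit matrices. -/
structure M3 where
  a : E25
  b : E25
  c : E25
  d : E25
  e : E25
  f : E25
  g : E25
  h : E25
  i : E25
  deriving DecidableEq

namespace M3

def toM (m : M3) : Matrix (Fin 3) (Fin 3) E25 := !![m.a, m.b, m.c; m.d, m.e, m.f; m.g, m.h, m.i]

def mul (x y : M3) : M3 :=
  ⟨x.a * y.a + x.b * y.d + x.c * y.g, x.a * y.b + x.b * y.e + x.c * y.h, x.a * y.c + x.b * y.f + x.c * y.i,
   x.d * y.a + x.e * y.d + x.f * y.g, x.d * y.b + x.e * y.e + x.f * y.h, x.d * y.c + x.e * y.f + x.f * y.i,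
   x.g * y.a + x.h * y.d + x.i * y.g, x.g * y.b + x.h * y.e + x.i * y.h, x.g * y.c + x.h * y.f + x.i * y.i⟩

def one : M3 := ⟨1, 0, 0, 0, 1, 0, 0, 0, 1⟩

theorem toM_one : one.toM = 1 := by
  ext i j
  fin_cases i <;> fin_cases j <;> simp [toM, one]

theorem toM_mul (x y : M3) : (x.mul y).toM = x.toM * y.toM := by
  ext i j
  fin_cases i <;> fin_cases j <;> simp [toM, mul, Matrix.mul_apply, Fin.sum_univ_three]

def ofM (A : Matrix (Fin 3) (Fin 3) E25) : M3 :=
  ⟨A 0 0, A 0 1, A 0 2, A 1 0, A 1 1, A 1 2, A 2 0, A 2 1, A 2 2⟩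

theorem toM_ofM (A : Matrix (Fin 3) (Fin 3) E25) : (ofM A).toM = A := by
  ext i j
  fin_cases i <;> fin_cases j <;> rfl

theorem ofM_toM (m : M3) : ofM m.toM = m := rfl

theorem toM_inj {x y : M3} (h : x.toM = y.toM) : x = y := by
  rw [← ofM_toM x, ← ofM_toM y, h]

def det (m : M3) : E25 :=
  m.a * m.e * m.i - m.a * m.f * m.h - m.b * m.d * m.i + m.b * m.f * m.g + m.c * m.d * m.h - m.c * m.e * m.g

theorem det_toM (m : M3) : m.toM.det = m.det := by
  simp [toM, det, Matrix.det_fin_three]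

/-- The columns are orthonormal and the determinant is one. -/
def Good (m : M3) : Prop :=
  m.det = 1 ∧
  m.a * fr m.a + m.d * fr m.d + m.g * fr m.g = 1 ∧
  m.a * fr m.b + m.d * fr m.e + m.g * fr m.h = 0 ∧
  m.a * fr m.c + m.d * fr m.f + m.g * fr m.i = 0 ∧
  m.b * fr m.a + m.e * fr m.d + m.h * fr m.g = 0 ∧
  m.b * fr m.b + m.e * fr m.e + m.h * fr m.h = 1 ∧
  m.b * fr m.c + m.e * fr m.f + m.h * fr m.i = 0 ∧
  m.c * fr m.a + m.f * fr m.d + m.i * fr m.g = 0 ∧
  m.c * fr m.b + m.f * fr m.e + m.i * fr m.h = 0 ∧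
  m.c * fr m.c + m.f * fr m.f + m.i * fr m.i = 1

instance : DecidablePred Good := fun m => by unfold Good; infer_instance

theorem herm_eq (u v : V) : Cfsg.hermForm 3 E25 5 u v = u 0 * fr (v 0) + u 1 * fr (v 1) + u 2 * fr (v 2) := by
  simp [Cfsg.hermForm, Fin.sum_univ_three, pow5]

theorem toM_mulVec (m : M3) (u : V) :
    m.toM *ᵥ u = ![m.a * u 0 + m.b * u 1 + m.c * u 2, m.d * u 0 + m.e * u 1 + m.f * u 2, m.g * u 0 + m.h * u 1 + m.i * u 2] := by
  ext i
  fin_cases i <;> simp [toM, Matrix.mulVec, dotProduct, Fin.sum_univ_three]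

theorem good_preserves {m : M3} (h : Good m) (u v : V) :
    Cfsg.hermForm 3 E25 5 (m.toM *ᵥ u) (m.toM *ᵥ v) = Cfsg.hermForm 3 E25 5 u v := by
  obtain ⟨-, h00, h01, h02, h10, h11, h12, h20, h21, h22⟩ := h
  rw [herm_eq, herm_eq, toM_mulVec, toM_mulVec]
  simp only [Matrix.cons_val_zero, Matrix.cons_val_one, Matrix.cons_val, fr_add, fr_mul]
  linear_combination (u 0 * fr (v 0)) * h00 + (u 0 * fr (v 1)) * h01 + (u 0 * fr (v 2)) * h02 +
    (u 1 * fr (v 0)) * h10 + (u 1 * fr (v 1)) * h11 + (u 1 * fr (v 2)) * h12 +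
    (u 2 * fr (v 0)) * h20 + (u 2 * fr (v 1)) * h21 + (u 2 * fr (v 2)) * h22

/-- The element of the unitary group of a good matrix. -/
def lift (m : M3) (h : Good m) : SU3 :=
  ⟨⟨m.toM, by rw [det_toM]; exact h.1⟩, fun u v => good_preserves h u v⟩

theorem lift_coe (m : M3) (h : Good m) : ((lift m h : SU3) : SpecialLinearGroup (Fin 3) E25).1 = m.toM := rfl

end M3

/-- The matrix of an element of the unitary group. -/
def mat (g : SU3) : Matrix (Fin 3) (Fin 3) E25 := (g : SpecialLinearGroup (Fin 3) E25).1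

theorem mat_mul (g h : SU3) : mat (g * h) = mat g * mat h := rfl
theorem mat_one : mat (1 : SU3) = 1 := rfl
theorem mat_inj {g h : SU3} (e : mat g = mat h) : g = h := Subtype.ext (Subtype.ext e)

theorem mat_preserves (g : SU3) (u v : V) :
    Cfsg.hermForm 3 E25 5 (mat g *ᵥ u) (mat g *ᵥ v) = Cfsg.hermForm 3 E25 5 u v := g.2 u v

theorem mat_det (g : SU3) : (mat g).det = 1 := (g : SpecialLinearGroup (Fin 3) E25).2

/-- Finite. -/
instance : Finite SU3 := inferInstance

/-- A submonoid of a finite group is a subgroup. -/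
def toSub {Γ : Type*} [Group Γ] [Finite Γ] (S : Submonoid Γ) : Subgroup Γ :=
  { S with
    inv_mem' := by
      intro x hx
      have h1 : x⁻¹ = x ^ (orderOf x - 1) := by
        apply inv_eq_of_mul_eq_one_right
        rw [← pow_succ', Nat.sub_add_cancel (orderOf_pos x), pow_orderOf_eq_one]
      rw [h1]
      exact S.pow_mem hx _ }

@[simp] theorem mem_toSub {Γ : Type*} [Group Γ] [Finite Γ] (S : Submonoid Γ) (x : Γ) : x ∈ toSub S ↔ x ∈ S := Iff.rfl

theorem card_SU_G : Nat.card G = 126000 := by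
  have hF : Fintype.card E25 = 5 ^ 2 := by rw [card_E25]; norm_num
  have h := Cfsg.Agent.Lead.card_PSU (F := E25) (q := 5) (n := 3) hF (by norm_num)
  norm_num [Finset.prod_range_succ, Nat.even_iff] at h
  have h' : 3 * (6 * Nat.card G) = 2268000 := h
  omega

theorem card_center : Nat.card (Subgroup.center SU3) = 3 := by
  have hF : Fintype.card E25 = 5 ^ 2 := by rw [card_E25]; norm_num
  have h := Cfsg.Agent.Lead.card_center_SU (F := E25) (q := 5) (n := 3) hF (by norm_num)
  simpa using h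

theorem card_SU3 : Nat.card SU3 = 378000 := by
  have h1 := Subgroup.card_eq_card_quotient_mul_card_subgroup (Subgroup.center SU3)
  rw [card_center] at h1
  have h2 : Nat.card (SU3 ⧸ Subgroup.center SU3) = 126000 := card_SU_G
  rw [h1, h2]

theorem center_scalar {z : SU3} (hz : z ∈ Subgroup.center SU3) : mat z = (mat z 0 0) • (1 : Matrix (Fin 3) (Fin 3) E25) := by
  have hF : Fintype.card E25 = 5 ^ 2 := by rw [card_E25]; norm_num
  exact Cfsg.Agent.Lead.center_SU_scalar (F := E25) (q := 5) (n := 3) hF hz 0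

instance : IsSimpleGroup G := by
  have hF : Fintype.card E25 = 5 ^ 2 := by rw [card_E25]; norm_num
  exact Cfsg.Agent.Lead.PSU.psu_simple (F := E25) (q := 5) (n := 3) hF (by norm_num) (by norm_num) (by norm_num)

end Cfsg.Agent.H16.U35
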