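import Cfsg.Agent.Lib.H16.U35.Loc
import Cfsg.Agent.Lib.H16.U35.Data

/-! A subgroup of index fifty, as the stabiliser of a set of 105 points. -/

set_option autoImplicit false
set_option linter.unusedSectionVars false
set_option linter.unusedVariables false
set_option linter.unusedSimpArgs false
set_option linter.style.haveILetI false
set_option maxRecDepth 100000

namespace Cfsg.Agent.H16.U35

open E25 Matrix M3

noncomputable section

namespace P3

def toV (p : P3) : V := ![p.x, p.y, p.z]

theorem toV_inj {p q : P3} (h : p.toV = q.toV) : p = q := by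
  cases p
  cases q
  have h0 := congrFun h 0
  have h1 := congrFun h 1
  have h2 := congrFun h 2
  simp only [toV, Matrix.cons_val_zero, Matrix.cons_val_one, Matrix.cons_val] at h0 h1 h2
  rw [h0, h1, h2]

end P3

def mv (m : M3) (p : P3) : P3 :=
  ⟨m.a * p.x + m.b * p.y + m.c * p.z, m.d * p.x + m.e * p.y + m.f * p.z, m.g * p.x + m.h * p.y + m.i * p.z⟩

theorem toV_mv (m : M3) (p : P3) : m.toM *ᵥ p.toV = (mv m p).toV := by
  rw [toM_mulVec]
  rfl

def scale (c : E25) (p : P3) : P3 := ⟨c * p.x, c * p.y, c * p.z⟩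

theorem toV_scale (c : E25) (p : P3) : (scale c p).toV = c • p.toV := by
  ext i
  fin_cases i <;> rfl

def lead (p : P3) : E25 := if p.x ≠ 0 then p.x else if p.y ≠ 0 then p.y else p.z

def nz (p : P3) : P3 := scale (lead p)⁻¹ p

def Ok (m : M3) : Prop := ∀ p ∈ LS, lead (mv m p) ≠ 0 ∧ nz (mv m p) ∈ LS ∧ mv m p = scale (lead (mv m p)) (nz (mv m p))

instance : DecidablePred Ok := fun m => by unfold Ok; infer_instance

def Sv : Set V := {v | ∃ c : E25, c ≠ 0 ∧ ∃ p ∈ LS, v = c • p.toV}

def Ks : Subgroup SU3 := toSub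
  { carrier := {g | ∀ v ∈ Sv, mat g *ᵥ v ∈ Sv}
    mul_mem' := by
      intro g h hg hh v hv
      rw [mat_mul, ← Matrix.mulVec_mulVec]
      exact hg _ (hh v hv)
    one_mem' := by
      intro v hv
      rw [mat_one, Matrix.one_mulVec]
      exact hv }

theorem mem_Ks {g : SU3} : g ∈ Ks ↔ ∀ v ∈ Sv, mat g *ᵥ v ∈ Sv := Iff.rfl

theorem mem_Ks_of_ok {g : SU3} (h : Ok (ofM (mat g))) : g ∈ Ks := by
  rw [mem_Ks]
  rintro v ⟨c, hc, p, hp, rfl⟩
  obtain ⟨h1, h2, h3⟩ := h p hp
  refine ⟨c * lead (mv (ofM (mat g)) p), mul_ne_zero hc h1, _, h2, ?_⟩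
  rw [Matrix.mulVec_smul]
  have h4 : mat g *ᵥ p.toV = (mv (ofM (mat g)) p).toV := by
    rw [← toV_mv, toM_ofM]
  rw [h4]
  conv_lhs => rw [h3, toV_scale]
  rw [smul_smul]

theorem center_le_Ks : Subgroup.center SU3 ≤ Ks := by
  intro z hz
  rw [mem_Ks]
  have h := center_scalar hz
  have ht : mat z 0 0 ≠ 0 := by
    intro h0
    have hd := mat_det z
    rw [h, h0, zero_smul, Matrix.det_zero] at hd
    exact zero_ne_one hd
  rintro v ⟨c, hc, p, hp, rfl⟩
  refine ⟨mat z 0 0 * c, mul_ne_zero ht hc, p, hp, ?_⟩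
  rw [h, Matrix.smul_mulVec, Matrix.one_mulVec]
  simp [smul_smul]

theorem good_m0 : Good m0 := by decide +kernel
theorem p0_mem : p0 ∈ LS := by decide +kernel
theorem m0_out : ∀ c : E25, c ≠ 0 → ∀ q ∈ LS, mv m0 p0 ≠ scale c q := by decide +kernel

def x0 : SU3 := lift m0 good_m0

theorem x0_not : x0 ∉ Ks := by
  intro h
  have h1 := (mem_Ks.1 h) p0.toV ⟨1, one_ne_zero, p0, p0_mem, by simp⟩
  obtain ⟨c, hc, q, hq, e⟩ := h1
  have h2 : mat x0 *ᵥ p0.toV = (mv m0 p0).toV := toV_mv m0 p0
  rw [h2, ← toV_scale] at e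
  exact m0_out c hc q hq (P3.toV_inj e)

/-- A list of matrices which is a subgroup of the stabiliser. -/
structure ListOK (Ls : List M3) : Prop where
  one : M3.one ∈ Ls
  mul : ∀ a ∈ Ls, ∀ b ∈ Ls, a.mul b ∈ Ls
  good : ∀ a ∈ Ls, Good a
  nd : Ls.Nodup
  ok : ∀ a ∈ Ls, Ok a

theorem ofM_mat_mul (g h : SU3) : ofM (mat (g * h)) = (ofM (mat g)).mul (ofM (mat h)) := by
  apply toM_inj
  rw [toM_mul, toM_ofM, toM_ofM, toM_ofM, mat_mul]

theorem ofM_mat_one : ofM (mat (1 : SU3)) = M3.one := by
  apply toM_inj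
  rw [toM_ofM, toM_one, mat_one]

theorem mat_lift (m : M3) (h : Good m) : mat (lift m h) = m.toM := rfl

theorem length_dvd {Ls : List M3} (h : ListOK Ls) : Ls.length ∣ Nat.card Ks := by
  let A : Subgroup SU3 := toSub
    { carrier := {g | ofM (mat g) ∈ Ls}
      mul_mem' := by
        intro g k hg hk
        change ofM (mat (g * k)) ∈ Ls
        rw [ofM_mat_mul]
        exact h.mul _ hg _ hk
      one_mem' := by
        change ofM (mat (1 : SU3)) ∈ Ls
        rw [ofM_mat_one]
        exact h.one }
  have hAK : A ≤ Ks := fun g hg => mem_Ks_of_ok (h.ok _ hg)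
  have hc : Nat.card A = Ls.length := by
    let e : A ≃ {a // a ∈ Ls} :=
      { toFun := fun g => ⟨ofM (mat g), g.2⟩
        invFun := fun a => ⟨lift a.1 (h.good _ a.2), by
          change ofM (mat (lift a.1 (h.good _ a.2))) ∈ Ls
          rw [mat_lift, ofM_toM]
          exact a.2⟩
        left_inv := by
          intro g
          apply Subtype.ext
          apply mat_inj
          change mat (lift (ofM (mat g.1)) (h.good _ g.2)) = mat g.1
          rw [mat_lift, toM_ofM]
        right_inv := by
          intro a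
          apply Subtype.ext
          change ofM (mat (lift a.1 (h.good _ a.2))) = a.1
          rw [mat_lift, ofM_toM] }
    rw [Nat.card_congr e]
    have h1 : Nat.card {a // a ∈ Ls} = Nat.card (Ls.toFinset : Finset M3) := by
      refine Nat.card_congr ?_
      exact Equiv.subtypeEquivRight (fun a => by simp)
    rw [h1, Nat.card_eq_fintype_card, Fintype.card_coe, List.toFinset_card_of_nodup h.nd]
  rw [← hc]
  exact Subgroup.card_dvd_of_le hAK

theorem ok8 : ListOK L8 :=
  ⟨by decide +kernel, by decide +kernel, by decide +kernel, by decide +kernel, by decide +kernel⟩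
theorem ok27 : ListOK L27 :=
  ⟨by decide +kernel, by decide +kernel, by decide +kernel, by decide +kernel, by decide +kernel⟩
theorem ok5 : ListOK L5 :=
  ⟨by decide +kernel, by decide +kernel, by decide +kernel, by decide +kernel, by decide +kernel⟩
theorem ok7 : ListOK L7 :=
  ⟨by decide +kernel, by decide +kernel, by decide +kernel, by decide +kernel, by decide +kernel⟩

theorem len8 : L8.length = 8 := by decide +kernel
theorem len27 : L27.length = 27 := by decide +kernel
theorem len5 : L5.length = 5 := by decide +kernel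
theorem len7 : L7.length = 7 := by decide +kernel

theorem dvd_Ks : 7560 ∣ Nat.card Ks := by
  have h8 := length_dvd ok8
  have h27 := length_dvd ok27
  have h5 := length_dvd ok5
  have h7 := length_dvd ok7
  rw [len8] at h8
  rw [len27] at h27
  rw [len5] at h5
  rw [len7] at h7
  have h1 : 8 * 27 ∣ Nat.card Ks := Nat.Coprime.mul_dvd_of_dvd_of_dvd (by norm_num) h8 h27
  have h2 : 8 * 27 * 5 ∣ Nat.card Ks := Nat.Coprime.mul_dvd_of_dvd_of_dvd (by norm_num) h1 h5
  have h3 : 8 * 27 * 5 * 7 ∣ Nat.card Ks := Nat.Coprime.mul_dvd_of_dvd_of_dvd (by norm_num) h2 h7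
  simpa using h3

/-- There is a subgroup of index fifty. -/
theorem part2 : ∃ H : Subgroup G, H.index = 50 := by
  refine ⟨Ks.map pr, ?_⟩
  have h1 : (Ks.map pr).index = Ks.index := index_map_center center_le_Ks
  have hne : Ks.map pr ≠ ⊤ := by
    intro h
    rw [h, Subgroup.index_top] at h1
    have h2 : Ks = ⊤ := Subgroup.index_eq_one.1 h1.symm
    apply x0_not
    rw [h2]
    exact Subgroup.mem_top _
  have h3 := part1 _ hne
  have h4 : Ks.index ≤ 50 := by
    have h5 := Ks.card_mul_index
    rw [card_SU3] at h5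
    obtain ⟨k, hk⟩ := dvd_Ks
    rw [hk] at h5
    have h6 : k * Ks.index = 50 := by
      have : 7560 * (k * Ks.index) = 7560 * 50 := by
        rw [← mul_assoc, h5]
      exact Nat.eq_of_mul_eq_mul_left (by norm_num) this
    have hk0 : 0 < k := by
      rcases Nat.eq_zero_or_pos k with h | h
      · rw [h, zero_mul] at h6
        omega
      · exact h
    calc Ks.index = 1 * Ks.index := (one_mul _).symm
      _ ≤ k * Ks.index := Nat.mul_le_mul_right _ hk0
      _ = 50 := h6
  omega

/-! ### Passing to an arbitrary field with 25 elements -/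

section Transfer

open scoped MatrixGroups

variable {F F' : Type*} [Field F] [Field F']

def slEquiv3 (e : F ≃+* F') : SL(3, F) ≃* SL(3, F') where
  toFun := Matrix.SpecialLinearGroup.map (e : F →+* F')
  invFun := Matrix.SpecialLinearGroup.map (e.symm : F' →+* F)
  left_inv g := by
    apply Subtype.ext
    ext i j
    exact e.symm_apply_apply _
  right_inv g := by
    apply Subtype.ext
    ext i j
    exact e.apply_symm_apply _
  map_mul' := map_mul _

lemma su_map3 (e : F ≃+* F') (M : SL(3, F)) (h : M ∈ Cfsg.SU 3 F 5) : slEquiv3 e M ∈ Cfsg.SU 3 F' 5 := by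
  intro u v
  have key : ∀ w : Fin 3 → F', (Cfsg.slToMat 3 F' (slEquiv3 e M)).mulVec w =
      fun i => e ((Cfsg.slToMat 3 F M).mulVec (fun j => e.symm (w j)) i) := by
    intro w
    ext i
    simp only [Matrix.mulVec, dotProduct, map_sum, map_mul, RingEquiv.apply_symm_apply]
    rfl
  have h1 := h (fun j => e.symm (u j)) (fun j => e.symm (v j))
  have h2 := congrArg e h1
  simp only [Cfsg.hermForm, map_sum, map_mul, map_pow, RingEquiv.apply_symm_apply] at h2
  simp only [Cfsg.hermForm]
  rw [key, key]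
  exact h2

def suEquiv3 (e : F ≃+* F') : Cfsg.SU 3 F 5 ≃* Cfsg.SU 3 F' 5 where
  toFun M := ⟨slEquiv3 e M.1, su_map3 e M.1 M.2⟩
  invFun M := ⟨slEquiv3 e.symm M.1, su_map3 e.symm M.1 M.2⟩
  left_inv M := by
    apply Subtype.ext
    apply Subtype.ext
    ext i j
    exact e.symm_apply_apply _
  right_inv M := by
    apply Subtype.ext
    apply Subtype.ext
    ext i j
    exact e.apply_symm_apply _
  map_mul' M N := by
    apply Subtype.ext
    exact map_mul (slEquiv3 e) M.1 N.1

lemma center_equiv3 {A B : Type*} [Group A] [Group B] (f : A ≃* B) :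
    (Subgroup.center A).map f.toMonoidHom = Subgroup.center B := by
  ext z
  constructor
  · rintro ⟨w, hw, rfl⟩
    rw [Subgroup.mem_center_iff]
    intro g
    have h1 := Subgroup.mem_center_iff.1 hw (f.symm g)
    have h2 := congrArg f h1
    simpa using h2
  · intro hz
    refine ⟨f.symm z, ?_, by simp⟩
    rw [SetLike.mem_coe, Subgroup.mem_center_iff]
    intro g
    apply f.injective
    simp only [map_mul, MulEquiv.apply_symm_apply]
    exact Subgroup.mem_center_iff.1 hz (f g)

def psuEquiv3 (e : F ≃+* F') : Cfsg.PSU 3 F 5 ≃* Cfsg.PSU 3 F' 5 :=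
  QuotientGroup.congr _ _ (suEquiv3 e) (center_equiv3 (suEquiv3 e))

end Transfer

/-- The minimal index of a proper subgroup of the projective unitary group of dimension three over 25 elements. -/
theorem u35_index {F : Type*} [Field F] [Fintype F] (hF : Fintype.card F = 25) :
    (∀ H : Subgroup (Cfsg.PSU 3 F 5), H ≠ ⊤ → 50 ≤ H.index) ∧ (∃ H : Subgroup (Cfsg.PSU 3 F 5), H.index = 50) := by
  let e : F ≃+* E25 := FiniteField.ringEquivOfCardEq (by rw [hF, card_E25])
  let f : Cfsg.PSU 3 F 5 ≃* G := psuEquiv3 e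
  constructor
  · intro H hH
    have h1 : (H.map f.toMonoidHom).index = H.index := Subgroup.index_map_equiv H f
    rw [← h1]
    apply part1
    intro h
    apply hH
    rw [eq_top_iff]
    intro x _
    have hx : f x ∈ H.map f.toMonoidHom := by rw [h]; exact Subgroup.mem_top _
    obtain ⟨y, hy, hye⟩ := hx
    have : y = x := f.injective hye
    rwa [this] at hy
  · obtain ⟨K, hK⟩ := part2
    refine ⟨K.comap f.toMonoidHom, ?_⟩
    have h2 : (K.comap f.toMonoidHom).index = K.index :=
      Subgroup.index_comap_of_surjective K (f := f.toMonoidHom) f.surjective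
    rw [h2]
    exact hK

end

end Cfsg.Agent.H16.U35
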